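import Cfsg.Agent.J4D.Loc
import Cfsg.Agent.J4B.Chow
import Cfsg.Agent.BG.S01a

/-! The `5`-local structure of a simple group of Janko-four type. -/

set_option autoImplicit false
set_option linter.style.haveILetI false

namespace Cfsg.Agent.J4D

open Cfsg Cfsg.Agent.LL Cfsg.Agent.LL.U6 Cfsg.Agent.H16 Cfsg.Agent.H3 Cfsg.Agent.H10 Subgroup Matrix

theorem gl_sl : Nonempty (GL (Fin 3) (ZMod 2) ≃* SpecialLinearGroup (Fin 3) (ZMod 2)) :=
  ⟨(MulEquiv.ofBijective SpecialLinearGroup.toGL ⟨SpecialLinearGroup.toGL_injective, fun g =>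
    ⟨⟨g, (by decide : ∀ a : ZMod 2, a ≠ 0 → a = 1) _ g.det_ne_zero⟩, Units.ext rfl⟩⟩).symm⟩

theorem card_gl3 : Nat.card (GL (Fin 3) (ZMod 2)) = 168 := by
  rw [Matrix.card_GL_field, Fin.prod_univ_three, ZMod.card]; rfl

variable {G : Type*} [Group G] {z u : G} {W : Subgroup G}

theorem cj_comm {a b : G} (g : G) (h : a * b = b * a) : g * a * g⁻¹ * (g * b * g⁻¹) = g * b * g⁻¹ * (g * a * g⁻¹) := by
  rw [conj_mul, conj_mul, h]

theorem cj_cent {a c : G} (hc : c * u = u * c) (h : a * u = u * a) : c * a * c⁻¹ * u = u * (c * a * c⁻¹) :=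
  ((Commute.mul_left hc h).mul_left (Commute.inv_left hc)).eq

namespace D5
variable (h : D5 z u W)
include h

theorem comm {a b : G} (ha : a ∈ W) (hb : b ∈ W) : a * b = b * a := H11.comm_of_sq_eq_one h.sq ha hb

theorem sqA {a : G} (ha : IsConj z a) : a * a = 1 := by
  obtain ⟨g, rfl⟩ := isConj_iff.mp ha
  rw [conj_mul, ← pow_two, ← h.z2, pow_orderOf_eq_one]; simp

theorem tri {a w e : G} (a1 : IsConj z a) (a2 : a * u = u * a) (w1 : IsConj z w) (w2 : w * u = u * w) (e1 : IsConj z e)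
    (e2 : e * u = u * e) (h1 : a * w = w * a) (h2 : e * w = w * e) : a * e = e * a := by
  obtain ⟨c, hc, rfl⟩ := h.tr w w1 w2
  have l : ∀ {a}, IsConj z a → a * u = u * a → a * (c * z * c⁻¹) = c * z * c⁻¹ * a → c⁻¹ * a * c⁻¹⁻¹ ∈ W := fun a1 a2 a3 =>
    (h.mem _).mpr (Or.inr ⟨a1.trans (isConj_iff.mpr ⟨_, rfl⟩), by simpa [mul_assoc] using cj_comm c⁻¹ a3,
      cj_cent (Commute.inv_left hc) a2⟩)
  simpa [mul_assoc] using cj_comm c (h.comm (l a1 a2 h1) (l e1 e2 h2))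

variable [Finite G]

theorem all {a : G} (a1 : IsConj z a) (a2 : a * u = u * a) : a ∈ W := by
  obtain ⟨s, s1, s2, s3, s4⟩ := h.s
  obtain ⟨w, w1, w2, w3⟩ := h.B s s1 s2 s3 s4
  have l : ∀ {a}, IsConj z a → a * u = u * a → a * w = w * a := fun {a} a1 a2 => by
    rcases dih (M := centralizer {u}) (mem_centralizer_singleton_iff.mpr a2) (mem_centralizer_singleton_iff.mpr s3)
      (h.sqA a1) s1 with ⟨k, -, e⟩ | ⟨v, v1, v2, v3, v4, ⟨k, -, e⟩, -⟩
    · exact absurd (a1.trans (isConj_iff.mpr ⟨k, e⟩).symm) s4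
    replace v1 := mem_centralizer_singleton_iff.mp v1
    by_cases c : IsConj z v
    · exact h.tri a1 a2 c v1 w1 w2 v3.symm (w3 v v4 v1).symm
    have v5 : v * a * (v * a) = 1 := by rcases e with e | e <;> rw [← e, conj_mul] <;> simp [h.sqA a1, s1]
    rw [(Commute.symm v3).mul_mul_mul_comm, h.sqA a1, mul_one] at v5
    obtain ⟨w', b1, b2, b3⟩ := h.B v v5 v2 v1 c
    exact h.tri a1 a2 b1 b2 w1 w2 (b3 a v3.symm a2) (w3 w' (b3 s v4.symm s3).symm b2).symm
  exact (h.mem a).mpr (Or.inr ⟨a1, h.tri a1 a2 w1 w2 (IsConj.refl z) h.zu (l a1 a2) (l (IsConj.refl z) h.zu), a2⟩)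

theorem norm : centralizer {u} ≤ normalizer (W : Set G) := fun c hc => mem_normalizer_of_conj_mem fun a ha => by
  rcases (h.mem a).mp ha with rfl | ⟨a1, -, a2⟩
  · simp
  exact h.all (a1.trans (isConj_iff.mpr ⟨c, rfl⟩)) (cj_cent (mem_centralizer_singleton_iff.mp hc) a2)

omit [Finite G] in
theorem le_cent : W ≤ centralizer {u} := fun a ha => mem_centralizer_singleton_iff.mpr (by
  rcases (h.mem a).mp ha with rfl | ⟨-, -, a2⟩
  exacts [by simp, a2])

theorem card : Nat.card (centralizer ({u} : Set G)) = 6720 := by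
  rw [← J4B.ncard_orb _ z, h.c960, show {v | ∃ n ∈ centralizer ({u} : Set G), n * z * n⁻¹ = v} = (W : Set G) \ {1} from
    Set.ext fun v => ⟨by
      rintro ⟨n, hn, rfl⟩
      exact ⟨h.all (isConj_iff.mpr ⟨n, rfl⟩) (cj_cent (mem_centralizer_singleton_iff.mp hn) h.zu), by
        simpa using H11.ne_one_of_orderOf_two h.z2⟩, fun ⟨a, b⟩ =>
      let ⟨a1, _, a2⟩ := ((h.mem v).mp a).resolve_left b
      let ⟨c, hc, e⟩ := h.tr v a1 a2
      ⟨c, mem_centralizer_singleton_iff.mpr hc, e⟩⟩, Set.ncard_diff_singleton_of_mem W.one_mem, ← Nat.card_coe_set_eq]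
  exact congrArg (fun n => (n - 1) * 960) h.cW

theorem exists_J : ∃ J : Subgroup G, J ≤ centralizer {u} ∧ zpowers u ⊓ J = ⊥ ∧ zpowers u ⊔ J = centralizer {u} ∧ W ≤ J ∧
    ∃ f : J →* SpecialLinearGroup (Fin 3) (ZMod 2), Function.Surjective f ∧ f.ker = W.subgroupOf J ∧
      ∀ K, ¬ f.ker.IsComplement' K := by
  haveI : Fact (Nat.Prime 2) := ⟨Nat.prime_two⟩
  set C := centralizer ({u} : Set G)
  have c1 : ∀ a ∈ zpowers u, ∀ c ∈ C, Commute a c := by
    rintro _ ⟨i, rfl⟩ c hc; exact (Commute.zpow_right (mem_centralizer_singleton_iff.mp hc) i).symm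
  have c2 : zpowers u ≤ C := zpowers_le.mpr (mem_centralizer_singleton_iff.mpr rfl)
  haveI : ((zpowers u).subgroupOf C).Normal := ⟨fun n hn g => by
    rwa [show g * n * g⁻¹ = n from Subtype.ext (mul_inv_eq_iff_eq_mul.mpr (c1 _ hn _ g.2).symm)]⟩
  have c3 : Nat.card ((zpowers u).subgroupOf C) = 5 := by
    rw [Nat.card_congr (subgroupOfEquivOfLe c2).toEquiv, Nat.card_zpowers, h.u5]
  have c4 : ((zpowers u).subgroupOf C).index = 1344 := by
    have := ((zpowers u).subgroupOf C).card_mul_index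
    rw [c3, h.card] at this; omega
  obtain ⟨K, hK⟩ := exists_right_complement'_of_coprime (N := (zpowers u).subgroupOf C) (by rw [c3, c4]; norm_num)
  set J := K.map C.subtype
  have j1 : zpowers u ⊓ J = ⊥ := eq_bot_iff.mpr (by
    rintro _ ⟨a, k, hk, rfl⟩; exact congrArg Subtype.val (mem_bot.mp (hK.disjoint.le_bot ⟨a, hk⟩)))
  have j2 : ∀ y ∈ C, y ^ 8 = 1 → y ∈ J := fun y hy e => by
    obtain ⟨⟨n, k⟩, f, -⟩ := hK.existsUnique ⟨y, hy⟩
    replace f : ((n : C) : G) * (k : C) = y := congrArg Subtype.val f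
    rw [← f, (c1 (n : C) n.2 _ k.1.2).mul_pow] at e
    have a1 : ((n : C) : G) ^ 8 = 1 := j1.le ⟨pow_mem n.2 8, by
      rw [eq_inv_of_mul_eq_one_left e]; exact J.inv_mem (J.pow_mem ⟨_, k.2, rfl⟩ 8)⟩
    have a2 := orderOf_dvd_natCard _ (show ((n : C) : G) ∈ zpowers u from n.2)
    rw [Nat.card_zpowers, h.u5] at a2
    rw [← f, orderOf_eq_one_iff.mp (Nat.eq_one_of_dvd_coprimes (by norm_num) (orderOf_dvd_of_pow_eq_one a1) a2), one_mul]
    exact ⟨_, k.2, rfl⟩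
  have j3 : W ≤ J := fun w hw => j2 w (h.le_cent hw) (by rw [show 8 = 2 * 4 from rfl, pow_mul, pow_two, h.sq w hw, one_pow])
  have j4 : Nat.card J = 1344 := by rw [card_map_of_injective (subtype_injective _), ← c4, hK.symm.index_eq_card]
  obtain ⟨f, hf⟩ := BG.exists_GL_rep (p := 2) (n := 3) (A := J) ⟨⟨⟨fun a b => Subtype.ext (h.comm a.2 b.2)⟩⟩,
    fun a ha => (pow_two a).trans (h.sq a ha)⟩ h.cW ((map_subtype_le K).trans h.norm)
  obtain ⟨e⟩ := gl_sl
  have k1 : (e.toMonoidHom.comp f).ker = W.subgroupOf J := by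
    rw [MonoidHom.ker_comp_of_injective _ _ e.injective, hf]
    refine le_antisymm (fun c hc => ?_) fun c hc w hw => h.comm hw hc
    obtain ⟨w, hw, i, e⟩ := h.cw c (mem_centralizer_singleton_iff.mp (map_subtype_le K c.2)) hc
    have : u ^ i = 1 := j1.le ⟨zpow_mem (mem_zpowers u) i, (mul_mem_cancel_left (j3 hw)).mp (e ▸ c.2)⟩
    rw [mem_subgroupOf, e, this, mul_one]; exact hw
  refine ⟨J, map_subtype_le K, j1, ?_, j3, e.toMonoidHom.comp f, ?_, k1, fun L hL => ?_⟩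
  · rw [← inf_eq_left.mpr c2, ← subgroupOf_map_subtype, ← Subgroup.map_sup, hK.sup_eq_top, ← MonoidHom.range_eq_map, range_subtype]
  · have := (e.toMonoidHom.comp f).ker.card_mul_index
    rw [index_ker, k1, Nat.card_congr (subgroupOfEquivOfLe j3).toEquiv, h.cW, j4] at this
    exact MonoidHom.range_eq_top.mp (eq_top_of_card_eq _ (by rw [← Nat.card_congr e.toEquiv, card_gl3]; omega))
  · obtain ⟨y, y1, y2, y3⟩ := h.y
    rw [k1] at hL
    obtain ⟨⟨n, k⟩, f, -⟩ := hL.existsUnique ⟨y, j2 y (mem_centralizer_singleton_iff.mpr y1) y2⟩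
    have := y3 ((n : J) : G)⁻¹ (inv_mem n.2)
    rw [← show ((n : J) : G) * (k : J) = y from congrArg Subtype.val f, inv_mul_cancel_left] at this
    exact this.2 (congrArg Subtype.val (mem_bot.mp (hL.disjoint.le_bot ⟨this.1, pow_mem k.2 4⟩)))

theorem not25 : ¬ 25 ∣ Nat.card G := fun e => by
  haveI : Fact (Nat.Prime 5) := ⟨Nat.prime_five⟩
  obtain ⟨K, h1, h2⟩ := Sylow.exists_subgroup_card_pow_succ (p := 5) (n := 1) e (H := zpowers u) (by rw [Nat.card_zpowers, h.u5]; rfl)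
  haveI := IsPGroup.isMulCommutative_of_card_eq_prime_sq h1
  have := card_dvd_of_le (show K ≤ centralizer {u} from fun a ha => mem_centralizer_singleton_iff.mpr
    (setLike_mul_comm ha (h2 (mem_zpowers u))))
  rw [h1, h.card] at this
  omega

variable {b : G} (hb : b * u * b⁻¹ = u ^ 2)
include hb

theorem b_norm : b ∈ normalizer (zpowers u : Set G) := mem_normalizer_of_conj_mem (by
  rintro _ ⟨i, rfl⟩; rw [← conj_zpow, hb]; exact zpow_mem (pow_mem (mem_zpowers u) 2) i)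

theorem card_norm : Nat.card (normalizer (zpowers u : Set G)) = 26880 := by
  have u1 : u ≠ 1 := fun e => by simpa [e] using h.u5
  rw [← J4B.ncard_orb _ u, inf_eq_right.mpr (H10.centralizer_zpowers u ▸ centralizer_le_normalizer _), h.card,
    show {v | ∃ n ∈ normalizer (zpowers u : Set G), n * u * n⁻¹ = v} = (zpowers u : Set G) \ {1} from Set.ext fun v => ⟨by
      rintro ⟨n, hn, rfl⟩
      exact ⟨(mem_normalizer_iff.mp hn u).mp (mem_zpowers u), by simpa using u1⟩, fun ⟨a, n⟩ =>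
      let ⟨i, hi, e⟩ := exists_pow_of_mem (by norm_num) h.u5 a
      let ⟨j, f⟩ := conj5 (h.u5 ▸ pow_orderOf_eq_one u) hb hi (by rintro rfl; exact n (e.trans (pow_zero u)))
      ⟨_, pow_mem (h.b_norm hb) j, f.trans e.symm⟩⟩, Set.ncard_diff_singleton_of_mem (zpowers u).one_mem, ← Nat.card_coe_set_eq]
  exact congrArg (fun n => (n - 1) * 6720) ((Nat.card_zpowers u).trans h.u5)

theorem exists_R (b4 : b ^ 4 = 1) : ∃ R : Subgroup G, zpowers u ≤ R ∧ R ≤ normalizer (zpowers u : Set G) ∧ Nat.card R = 20 ∧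
    R ⊓ centralizer {u} = zpowers u := by
  have n := zpowers_le.mpr (h.b_norm hb)
  have l : ∀ i < 4, b ^ i * u = u * b ^ i → i = 0 := fun i hi e => by
    have : ∀ j : ℕ, b ^ j * u * (b ^ j)⁻¹ = u ^ 2 ^ j := fun j => by
      induction j with
      | zero => simp
      | succ j ih => rw [pow_succ', cjcj, ih, ← conj_pow, hb, ← pow_mul, pow_succ']
    have := pow_eq_pow_iff_modEq.mp (((pow_one u).trans (mul_inv_eq_iff_eq_mul.mpr e).symm).trans (this i))
    rw [h.u5] at this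
    interval_cases i <;> first | rfl | exact absurd this (by decide)
  have o : orderOf b = 4 := (orderOf_eq_iff (by norm_num)).mpr ⟨b4, fun i hi n e => by simpa [n.ne'] using l i hi (by simp [e])⟩
  have d : ∀ a ∈ zpowers b, a * u = u * a → a = 1 := fun a ha e => by
    obtain ⟨i, hi, rfl⟩ := exists_pow_of_mem (by norm_num) o ha
    rw [l i hi e, pow_zero]
  have c : zpowers u ≤ centralizer {u} := zpowers_le.mpr (mem_centralizer_singleton_iff.mpr rfl)
  refine ⟨zpowers u ⊔ zpowers b, le_sup_left, sup_le le_normalizer n, ?_, le_antisymm (fun a ha => ?_) (le_inf le_sup_left c)⟩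
  · rw [H1.card_sup_of_disjoint n (eq_bot_iff.mpr fun a ha => d a ha.2 (mem_centralizer_singleton_iff.mp (c ha.1))),
      Nat.card_zpowers, Nat.card_zpowers, h.u5, o]
  · obtain ⟨x, hx, y, hy, rfl⟩ := (mem_sup_iff_of_right_le_normalizer n).mp ha.1
    rwa [d y hy (mem_centralizer_singleton_iff.mp ((mul_mem_cancel_left (c hx)).mp ha.2)), mul_one]

end D5

variable [Finite G]

theorem syl5 (h : ¬ 25 ∣ Nat.card G) {a : G} (ha : orderOf a = 5) {S : Subgroup G} (hS : Nat.card S = 5) :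
    ∃ g, S = zpowers (g * a * g⁻¹) :=
  let ⟨m, e⟩ := ha ▸ orderOf_dvd_natCard a
  exists_conj_zpowers Nat.prime_five e (fun ⟨n, f⟩ => h ⟨n, by rw [e, f]; ring⟩) ha hS

variable {Q : Subgroup G} {ρ : centralizer ({z} : Set G) →* Γ} {p : G → V6} {m : FT z Q ρ p} {x : centralizer ({z} : Set G)}
  {b : ℕ → G} {d : ℕ → centralizer ({z} : Set G)} {t : Finset GolayPt → G} {Φ : normalizer (m.AG : Set G) →* M24}

theorem exists_b (k : JC m x b d t Φ) (h : ¬ 25 ∣ Nat.card G) (hu : orderOf u = 5) : ∃ b, b * u * b⁻¹ = u ^ 2 ∧ b ^ 4 = 1 := by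
  haveI : Fact (Nat.Prime 5) := ⟨Nat.prime_five⟩
  obtain ⟨K, hK⟩ := k.split
  obtain ⟨-, ψ, -⟩ := hK.iso k.h.toMS
  obtain ⟨A, B, Y, Y', -, a1, a2, a3, a4, -, a5, a6, -⟩ := exists_rel
  let φ := K.subtype.comp (ψ.symm.toMonoidHom.comp L22.subtype)
  have i : Function.Injective φ := K.subtype_injective.comp (ψ.symm.injective.comp L22.subtype_injective)
  obtain ⟨g, e⟩ := syl5 h (a := φ B) ((orderOf_injective φ i B).trans (orderOf_eq_prime a3 fun e => a1 (by
    rw [e, one_mul, inv_one, mul_one] at a4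
    rw [← a2, show 11 = 3 * 3 + 2 from rfl, pow_add, pow_mul, ← a4, ← a4, ← pow_succ', ← a4]))) ((Nat.card_zpowers u).trans hu)
  obtain ⟨i, rfl⟩ := e.le (mem_zpowers u)
  refine ⟨g * φ (Y * Y * (Y' * Y')) * g⁻¹, ?_, by rw [conj_pow, ← map_pow, a5]; simp⟩
  beta_reduce
  rw [← conj_zpow, conj_inv, conj_mul, conj_mul, ← map_inv, ← map_mul, ← map_mul, a6, map_pow, ← conj_pow, ← zpow_natCast, ← zpow_natCast,
    ← _root_.zpow_mul, ← _root_.zpow_mul, mul_comm]

variable [IsSimpleGroup G] (hG : ¬ IsMulCommutative G) (j : JF m x)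
include hG j

theorem c5 (u : G) (hu : orderOf u = 5) : Nat.card (centralizer ({u} : Set G)) = 6720 := by
  haveI : Fact (Nat.Prime 5) := ⟨Nat.prime_five⟩
  obtain ⟨v, hv⟩ := exists_prime_orderOf_dvd_card' (G := centralizer ({z} : Set G)) 5
    (ord_jb ▸ (orderOf_dvd_natCard _ (j.hr.ge (J0_XJ jb_J))).trans (card_range_dvd ρ))
  obtain ⟨W, l⟩ := exists_d5 hG j hv
  obtain ⟨g, e⟩ := syl5 l.not25 hu ((Nat.card_zpowers _).trans l.u5)
  rw [H11.card_cent_of_isConj (isConj_iff.mpr ⟨g, rfl⟩), ← H10.centralizer_zpowers, ← e, H10.centralizer_zpowers, l.card]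

theorem main {F : Subgroup G} (hF : Nat.card F = 5) (hz : F ≤ centralizer ({z} : Set G)) :
    ¬ 25 ∣ Nat.card G ∧ (∃ J : Subgroup G, IsInternalDirectProduct F J (centralizer (F : Set G)) ∧
      ∃ (E : Subgroup J) (_ : E.Normal), IsElementaryAbelian 2 E ∧ Nat.card E = 8 ∧
        Nonempty (J ⧸ E ≃* SpecialLinearGroup (Fin 3) (ZMod 2)) ∧ ∀ K : Subgroup J, ¬ E.IsComplement' K) ∧
    (∃ R : Subgroup G, F ≤ R ∧ R ≤ normalizer (F : Set G) ∧ Nat.card R = 20 ∧ R ⊓ centralizer (F : Set G) = F) ∧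
    Nat.card (normalizer (F : Set G)) = 2 ^ 8 * 3 * 5 * 7 := by
  haveI : Fact (Nat.Prime 5) := ⟨Nat.prime_five⟩
  obtain ⟨⟨u, hu⟩, o⟩ := exists_prime_orderOf_dvd_card' (G := F) 5 hF.symm.dvd
  rw [orderOf_mk] at o
  obtain rfl := eq_of_le_of_card_ge (zpowers_le.mpr hu) (by rw [Nat.card_zpowers, o, hF])
  obtain ⟨W, l⟩ := exists_d5 hG j (u := ⟨u, hz hu⟩) ((orderOf_mk _ _).trans o)
  replace l : D5 z u W := l
  obtain ⟨_, _, _, _, k⟩ := j.exists_jc hG
  obtain ⟨b, b1, b2⟩ := exists_b k l.not25 o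
  obtain ⟨J, j1, j2, j3, j4, f, f1, f2, f3⟩ := l.exists_J
  rw [H10.centralizer_zpowers]
  refine ⟨l.not25, ⟨J, ⟨j3 ▸ le_sup_left, j1, ?_, j2, j3⟩, f.ker, inferInstance, ?_, ?_,
    ⟨QuotientGroup.quotientKerEquivOfSurjective f f1⟩, f3⟩, l.exists_R b1 b2, l.card_norm b1⟩
  · rintro _ ⟨i, rfl⟩ c hc; exact (Commute.zpow_right (mem_centralizer_singleton_iff.mp (j1 hc)) i).symm
  · rw [f2]
    exact ⟨⟨⟨fun a b => Subtype.ext (Subtype.ext (l.comm a.2 b.2))⟩⟩, fun a ha => Subtype.ext ((pow_two _).trans (l.sq _ ha))⟩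
  · rw [f2, Nat.card_congr (subgroupOfEquivOfLe j4).toEquiv, l.cW]

end Cfsg.Agent.J4D
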