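import Cfsg.Agent.J4D.Rho

/-! Local data for an element of order `5` in a simple group of Janko-four type. -/

set_option autoImplicit false
set_option maxRecDepth 100000
set_option linter.style.haveILetI false

namespace Cfsg.Agent.J4D

open Cfsg Cfsg.Agent.LL Cfsg.Agent.LL.U6 Cfsg.Agent.H16 Cfsg.Agent.H3 Cfsg.Agent.H10 MulAction Mdl Subgroup
open scoped Pointwise

theorem fix_five {e : M24} (h : e ^ 5 = 1) (n : e ≠ 1) : (fixSet e).card = 4 := by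
  obtain ⟨c, -, q, r, f⟩ := forall_p_elt mulOk24 gpt_inj (faith_M24 ⊤) (p := 5) (k := 1) (m := 48964608) (by norm_num)
    (by rw [card_top_M24]; norm_num) (by norm_num) (B := [1]) (S := [957478776841326336708359841186678880]) (by decide)
    (inK_top_of_allL (by decide +kernel)) (L := fun q => orB (eqP 5 24 (pid 5 24) q) (Nat.beq (pc24 (fixMask 5 24 q)) 4))
    (by decide +kernel) (x := e) trivial (j := 1) (by simpa using h)
  rcases orB_iff.mp f with f | f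
  · exact absurd (conj_eq_one_iff.mp (Rep.eq_of_faith (faith_M24 ⊤) trivial trivial (r.congr (eqP_iff.mp f)) (Rep.pid five_le))) n
  · rw [← Nat.eq_of_beq_eq_true f, ← r.card_fixSet, fixSet_conj, Finset.card_smul_finset]

variable {G : Type*} [Group G]

/-- local data -/
structure D5 (z u : G) (W : Subgroup G) : Prop where
  z2 : orderOf z = 2
  u5 : orderOf u = 5
  zu : z * u = u * z
  cW : Nat.card W = 8
  sq : ∀ w ∈ W, w * w = 1
  mem : ∀ w, w ∈ W ↔ w = 1 ∨ IsConj z w ∧ w * z = z * w ∧ w * u = u * w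
  c960 : Nat.card ↥(centralizer {u} ⊓ centralizer {z}) = 960
  cw : ∀ c, c * u = u * c → (∀ w ∈ W, w * c = c * w) → ∃ w ∈ W, ∃ i : ℤ, c = w * u ^ i
  s : ∃ s, s * s = 1 ∧ s ≠ 1 ∧ s * u = u * s ∧ ¬ IsConj z s
  y : ∃ y, y * u = u * y ∧ y ^ 8 = 1 ∧ ∀ e ∈ W, (e * y) ^ 4 ∈ W ∧ (e * y) ^ 4 ≠ 1
  tr : ∀ d, IsConj z d → d * u = u * d → ∃ c, c * u = u * c ∧ c * z * c⁻¹ = d
  B : ∀ s, s * s = 1 → s ≠ 1 → s * u = u * s → ¬ IsConj z s →
    ∃ w, IsConj z w ∧ w * u = u * w ∧ ∀ c, c * s = s * c → c * u = u * c → c * w = w * c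

variable {z : G} {Q : Subgroup G} {ρ : centralizer ({z} : Set G) →* Γ} {p : G → V6} [Finite G]
  {m : FT z Q ρ p} {x : centralizer ({z} : Set G)} {b : ℕ → G} {d : ℕ → centralizer ({z} : Set G)}
  {t : Finset GolayPt → G} {Φ : normalizer (m.AG : Set G) →* M24} {u : centralizer ({z} : Set G)}

omit [Finite G] in
theorem ker2 (m : FT z Q ρ p) : IsPGroup 2 ρ.ker := (Subgroup.ext m.ker : ρ.ker = Q.subgroupOf _) ▸ m.lx.isPGroup.comap_subtype

/-- the preimage of the isotropic point -/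
def W5 (m : FT z Q ρ p) : Subgroup G where
  carrier := {q | q ∈ Q ∧ L5 (p q)}
  one_mem' := ⟨one_mem _, (m.zero (one_mem _)).mpr (one_mem _) ▸ L5_zero⟩
  mul_mem' := fun ha hb => ⟨mul_mem ha.1 hb.1, m.mul ha.1 hb.1 ▸ ha.2.add hb.2⟩
  inv_mem' := fun ha => ⟨inv_mem ha.1, m.p_inv ha.1 ▸ ha.2⟩

theorem tetrad5 (k : JC m x b d t Φ) {u s : G} (u5 : orderOf u = 5) (h1 : s * s = 1) (h2 : s ≠ 1) (h3 : s * u = u * s)
    (h4 : ¬ IsConj z s) : ∃ w, IsConj z w ∧ w * u = u * w ∧ ∀ c, c * s = s * c → c * u = u * c → c * w = w * c := by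
  obtain ⟨a, ha, e⟩ := k.invol h1
  obtain ⟨g, rfl⟩ := isConj_iff.mp e
  have l := k.h.cent_duad k.j.u11 ha (fun f => h4 (f.trans e.symm)) (by simpa using h2)
  have cj : ∀ {a b : G}, a * b = b * a → g * a * g⁻¹ * (g * b * g⁻¹) = g * b * g⁻¹ * (g * a * g⁻¹) := fun h => by
    rw [conj_mul, conj_mul, h]
  let n : ∀ {c}, c * s = s * c → normalizer (m.AG : Set G) := fun {c} h => ⟨g * c * g⁻¹, l (mem_centralizer_singleton_iff.mpr (cj h))⟩
  have a1 : (fixSet (Φ (n h3.symm))).card = 4 := fix_five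
    (by rw [← map_pow, show n h3.symm ^ 5 = 1 from Subtype.ext (by simp [n, ← u5]), map_one]) fun f => by
      have := orderOf_dvd_of_pow_eq_one ((pow_two _).trans (k.h.A_sq ((k.ker _).mp f)))
      rw [H11.orderOf_conj, u5] at this
      omega
  have a2 : ∀ c, c * s = s * c → c * u = u * c → c * (g⁻¹ * t (fixSet (Φ (n h3.symm))) * g) =
      g⁻¹ * t (fixSet (Φ (n h3.symm))) * g * c := fun c h h' => by
    have := k.act (n h) _ (a1 ▸ by decide : Even (fixSet (Φ (n h3.symm))).card)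
    rw [← fixSet_conj, ← map_inv, ← map_mul, ← map_mul, show n h * n h3.symm * (n h)⁻¹ = n h3.symm from
      mul_inv_eq_iff_eq_mul.mpr (Subtype.ext (cj h'))] at this
    conv_rhs => rw [← this]
    simp [n, mul_assoc]
  exact ⟨_, (k.h.tetrad a1).trans (isConj_iff.mpr ⟨g⁻¹, by simp⟩), (a2 u h3.symm rfl).symm, a2⟩

theorem shift5 (j : JF m x) (u5 : orderOf u = 5) : ∃ ρ p, ∃ m : FT z Q ρ p, ∃ x, JF m x ∧ ρ u = el jb := by
  obtain ⟨g, hg, e⟩ := conj_jb (j.hr.le ⟨u, rfl⟩) (by rw [← map_pow, ← u5, pow_orderOf_eq_one, map_one]) fun f => by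
    obtain ⟨q, -, e⟩ := conj_of_ker ρ (ker2 m) Nat.prime_five (by norm_num) (u5 ▸ pow_orderOf_eq_one u) (one_pow 5)
      (f.trans (map_one ρ).symm)
    simp [conj_eq_one_iff.mp e] at u5
  obtain ⟨π, p1, p2⟩ := j.pi
  obtain ⟨y, h1, h2⟩ : ∃ y, g * ρ y * g⁻¹ = Wm ∧ y ^ 3 = 1 := by
    rcases XJ_W (inv_mem hg) with f | f
    · exact ⟨x, by rw [j.hx.trans f.symm]; group, j.x3⟩
    · exact ⟨x * x, by rw [map_mul, j.hx, ← f]; group, by rw [← pow_two, pow_right_comm, j.x3, one_pow]⟩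
  exact ⟨_, _, m.shift' (j.hr.ge hg), y, ⟨(range_shift (j.hr.ge hg)).trans j.hr, h1, h2, π, p1, fun h =>
    (p2 h).trans ⟨XJ_Z hg, fun e => by simpa [mul_assoc] using XJ_Z (inv_mem hg) e⟩⟩, e⟩

section
variable (hu : ρ u = el jb) (u5 : orderOf u = 5)
include hu u5

omit [Finite G] in
theorem qc (m : FT z Q ρ p) {q : G} (hq : q ∈ Q) : q * u = u * q ↔ el jb (p q) = p q := by
  refine ⟨fun h => by rw [← hu, ← m.act u hq, ← h, mul_inv_cancel_right], fun h => ?_⟩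
  rcases m.uniq hq (m.conj_mem u hq) (by rw [m.act u hq, hu, h]) with f | f
  · exact (mul_inv_eq_iff_eq_mul.mp f).symm
  refine (comm_of_sq (by rw [orderOf_coe, u5]; decide) (mul_inv_eq_iff_eq_mul.mp ?_)).symm
  rw [cjcj, f, ← conj_mul, f, mul_inv_eq_iff_eq_mul.mpr (mem_centralizer_singleton_iff.mp u.2), ← mul_assoc, m.lx.zz, one_mul]

theorem lift5 (j : JF m x) {g : Γ} (hg : g ∈ XJ) (h : g * el jb = el jb * g) : ∃ y, ρ y = g ∧ y * u = u * y := by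
  obtain ⟨y, rfl⟩ := j.hr.ge hg
  have h5 : u ^ 5 = 1 := u5 ▸ pow_orderOf_eq_one u
  obtain ⟨q, e, f⟩ := conj_of_ker ρ (ker2 m) Nat.prime_five (by norm_num) (x := y * u * y⁻¹) (by rw [conj_pow, h5]; simp) h5
    (by rw [map_mul, map_mul, hu, h, map_inv, mul_inv_cancel_right])
  exact ⟨q * y, by rw [map_mul, e, one_mul], mul_inv_eq_iff_eq_mul.mp ((cjcj _ _ _).trans f)⟩

theorem conjH (j : JF m x) {v : centralizer ({z} : Set G)} (h : v ^ 5 = 1) (n : v ≠ 1) : ∃ c, c * v * c⁻¹ = u := by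
  obtain ⟨g, hg, e⟩ := conj_jb (j.hr.le ⟨v, rfl⟩) (by rw [← map_pow, h, map_one]) fun f => by
    obtain ⟨q, -, e⟩ := conj_of_ker ρ (ker2 m) Nat.prime_five (by norm_num) h (one_pow 5) (f.trans (map_one ρ).symm)
    exact n (conj_eq_one_iff.mp e)
  obtain ⟨y, rfl⟩ := j.hr.ge hg
  obtain ⟨q, -, f⟩ := conj_of_ker ρ (ker2 m) Nat.prime_five (by norm_num) (x := y * v * y⁻¹) (by rw [conj_pow, h]; simp)
    (u5 ▸ pow_orderOf_eq_one u) (by simpa [hu] using e)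
  exact ⟨q * y, (cjcj _ _ _).trans f⟩

theorem card960 (j : JF m x) : Nat.card ↥(centralizer {(u : G)} ⊓ centralizer {z}) = 960 := by
  have a1 := m.card_inf (B := (centralizer {(u : G)}).subgroupOf (centralizer {z}))
  rw [show ((centralizer {(u : G)}).subgroupOf (centralizer {z})).map ρ = XJ ⊓ centralizer {el jb} from le_antisymm (by
      rintro _ ⟨y, hy, rfl⟩
      exact ⟨j.hr.le ⟨y, rfl⟩, mem_centralizer_singleton_iff.mpr (by
        rw [← hu, ← map_mul, ← map_mul, show y * u = u * y from Subtype.ext (mem_centralizer_singleton_iff.mp hy)])⟩) fun g hg =>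
      let ⟨y, e, f⟩ := lift5 hu u5 j hg.1 (mem_centralizer_singleton_iff.mp hg.2)
      ⟨y, mem_centralizer_singleton_iff.mpr (congrArg Subtype.val f), e⟩, card30,
    m.card_p' (U := ((centralizer {(u : G)}).subgroupOf (centralizer {z}) ⊓ ρ.ker).map (centralizer {z}).subtype) (by rintro _ ⟨y, hy, rfl⟩; exact (m.ker y).mp hy.2) ⟨⟨z, mem_centralizer_singleton_iff.mpr rfl⟩,
      ⟨mem_centralizer_singleton_iff.mpr (mem_centralizer_singleton_iff.mp u.2).symm, (m.ker _).mpr m.lx.mem⟩, rfl⟩,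
    show p '' (((centralizer {(u : G)}).subgroupOf (centralizer {z}) ⊓ ρ.ker).map (centralizer {z}).subtype : Subgroup G) =
      {v | el jb v = v} from Set.ext fun v => ⟨by
      rintro ⟨_, ⟨y, hy, rfl⟩, rfl⟩
      exact (qc hu u5 m ((m.ker y).mp hy.2)).mp (mem_centralizer_singleton_iff.mp hy.1), fun h =>
      let ⟨q, hq, e⟩ := m.surj v
      ⟨q, ⟨⟨q, m.lx.le_centralizer hq⟩, ⟨mem_centralizer_singleton_iff.mpr ((qc hu u5 m hq).mpr (e ▸ h)), (m.ker _).mpr hq⟩, rfl⟩, e⟩⟩,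
    ncard_fix5, ← inf_subgroupOf_right, Nat.card_congr (subgroupOfEquivOfLe inf_le_right).toEquiv] at a1
  exact a1.symm

omit hu u5 [Finite G] in
theorem sq_js (m : FT z Q ρ p) {h : centralizer ({z} : Set G)} (e : ρ h = el js) {r : G} (hr : r ∈ Q) :
    r * h * (r * h) ∈ Q ∧ p (r * h * (r * h)) = p r + el js (p r) + p (h * h) := by
  have a : (h : G) * h ∈ Q := (m.ker (h * h)).mp (by rw [map_mul, e, eq_inv_iff_mul_eq_one.mp js_inv.symm])
  rw [show r * h * (r * h) = r * (h * r * (h : G)⁻¹) * (h * h) by group, m.mul (mul_mem hr (m.conj_mem h hr)) a,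
    m.mul hr (m.conj_mem h hr), m.act h hr, e]
  exact ⟨mul_mem (mul_mem hr (m.conj_mem h hr)) a, rfl⟩

omit hu u5 [Finite G] in
theorem ncomm (m : FT z Q ρ p) {a b : G} (ha : a ∈ Q) (hb : b ∈ Q) (h1 : hf (p a) (p a) = 0) (h2 : hf (p b) (p b) = 0) :
    a * b = b * a ↔ hf (p a + p b) (p a + p b) = 0 := by
  rw [← m.sq ha] at h1
  rw [← m.sq hb] at h2
  rw [← m.mul ha hb, ← m.sq (mul_mem ha hb)]
  exact ⟨fun h => by rw [(Commute.symm h).mul_mul_mul_comm, h1, h2, mul_one], fun h => by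
    rw [eq_inv_of_mul_eq_one_left h, mul_inv_rev, inv_eq_of_mul_eq_one_left h1, inv_eq_of_mul_eq_one_left h2]⟩

omit [Finite G] in
theorem cjQ (m : FT z Q ρ p) {s : G} (hs : s ∈ Q) (h1 : el jb (p s) = p s) (h2 : hf (p s) (p s) = 0) (n : p s ≠ 0) :
    ∃ q ∈ Q, q * u = u * q ∧ q * s * q⁻¹ = z * s := by
  obtain ⟨v, a1, a2, a3⟩ := nc5 h1 h2 n
  obtain ⟨q, hq, rfl⟩ := m.surj v
  exact ⟨q, hq, (qc hu u5 m hq).mpr a1, m.lx.conj_eq_of_ne hq hs (mt (ncomm m hq hs a2 h2).mp a3)⟩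

omit hu u5 [Finite G] in
theorem outer (m : FT z Q ρ p) {y y' : centralizer ({z} : Set G)} (e : ρ y = el js) (e' : ρ y' = el js) (y2 : (y : G) * y = 1)
    (y2' : (y' : G) * y' = 1) (c : el jb (p (y' * (y : G)⁻¹)) = p (y' * (y : G)⁻¹)) : IsConj (y : G) y' := by
  have p1 := (m.zero (one_mem _)).mpr (one_mem _)
  have yi := inv_eq_of_mul_eq_one_left y2
  have hq : (y' : G) * (y : G)⁻¹ ∈ Q := (m.ker (y' * y⁻¹)).mp (by simp [e, e'])
  have a := (sq_js m e hq).2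
  rw [inv_mul_cancel_right, y2, y2', p1, add_zero] at a
  obtain ⟨v, -, f⟩ := js_br c (by rw [← add_left_cancel_iff (a := p _), ← a, add_self])
  obtain ⟨r, hr, rfl⟩ := m.surj v
  have l : ∀ r ∈ Q, r * (y * r⁻¹ * (y : G)⁻¹) ∈ Q ∧ p (r * (y * r⁻¹ * (y : G)⁻¹)) = p r + el js (p r) := fun r hr =>
    ⟨mul_mem hr (m.conj_mem y (inv_mem hr)), by rw [m.mul hr (m.conj_mem y (inv_mem hr)), m.act y (inv_mem hr), e, m.p_inv hr]⟩
  rcases m.uniq (l r hr).1 hq ((l r hr).2.trans f) with g | g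
  · exact isConj_iff.mpr ⟨r, by rw [eq_mul_of_mul_inv_eq g]; group⟩
  have j0 : el js 0 = 0 := by simpa using add_map js_OG 0 0
  obtain ⟨v, -, f⟩ := js_nsp L5_zero.fix j0
  obtain ⟨q, hq, rfl⟩ := m.surj v
  have := (m.lx.mem_z.mp (m.lx.sq _ (l q hq).1)).resolve_left (mt (m.sq (l q hq).1).mp (by simpa [j0, (l q hq).2] using f 0 L5_zero))
  refine isConj_iff.mpr ⟨r * (q * (y * q⁻¹ * (y : G)⁻¹)), ?_⟩
  rw [eq_mul_of_mul_inv_eq g, ← mul_assoc z, ← m.lx.cent r hr, ← congrArg (r * · * _ * _) this]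
  simp [mul_assoc, yi, ← mul_assoc (y : G) y, y2]

theorem toW (j : JF m x) {w : G} (hw : w ∈ Q) (a : IsConj z w) (c : w * u = u * w) : w ∈ W5 m := by
  by_cases n : w = z
  · rw [n]; exact ⟨m.lx.mem, m.p_z ▸ L5_zero⟩
  obtain ⟨g, hg, e⟩ := m.toJ j.hr hw a n
  exact ⟨hw, e ▸ L5_of hg (e ▸ (qc hu u5 m hw).mp c)⟩

theorem tr5 (j : JF m x) {d : G} (h1 : IsConj z d) (h2 : d * u = u * d) : ∃ c : G, c * u = u * c ∧ c * z * c⁻¹ = d := by
  obtain ⟨g, rfl⟩ := isConj_iff.mp h1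
  have o : orderOf (g⁻¹ * u * g) = 5 := by simpa [u5] using H11.orderOf_conj g⁻¹ (u : G)
  obtain ⟨c, e⟩ := conjH hu u5 j (v := ⟨g⁻¹ * u * g, mem_centralizer_singleton_iff.mpr (by
    calc _ = g⁻¹ * (u * (g * z * g⁻¹)) * g := by group
      _ = _ := by rw [← h2]; group)⟩) (Subtype.ext (o ▸ pow_orderOf_eq_one _ :))
    fun e => by simp [show g⁻¹ * u * g = 1 from congrArg Subtype.val e] at o
  replace e : c * (g⁻¹ * u * g) * (c : G)⁻¹ = u := congrArg Subtype.val e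
  refine ⟨g * (c : G)⁻¹, ?_, by rw [cjcj, mul_inv_eq_iff_eq_mul.mpr (mem_centralizer_singleton_iff.mp (inv_mem c.2))]⟩
  conv_lhs => rw [← e]
  group

omit u5 [Finite G] in
theorem out5' (j : JF m x) {y : centralizer ({z} : Set G)} (y2 : (y : G) * y = 1) (c : (y : G) * u = u * y) (n : (y : G) ∉ Q) :
    (∃ j : ℕ, Wm ^ j * ρ y * (Wm ^ j)⁻¹ = el js) ∧ ρ y (vc 1267) ≠ vc 1267 ∧ (ρ y (vc 2367) = vc 2367 → ρ y = el js) :=
  out5 (j.hr.le ⟨y, rfl⟩) (by rw [← hu, ← map_mul, ← map_mul, show y * u = u * y from Subtype.ext c])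
    (by rw [← map_mul, show y * y = 1 from Subtype.ext y2, map_one]) (mt (m.ker y).mp n)

omit hu u5 [Finite G] in
theorem fix_of (m : FT z Q ρ p) {y : centralizer ({z} : Set G)} {q : G} (hq : q ∈ Q) (h : y * q = q * y) : ρ y (p q) = p q := by
  rw [← m.act y hq, h, mul_inv_cancel_right]

variable [IsSimpleGroup G] (hG : ¬ IsMulCommutative G) (k : JC m x b d t Φ)
include hG k

omit [IsSimpleGroup G] hG in
theorem centB {s : G} (hs : s ∈ Q) (e : p s = vc 1267) {c : G} (h1 : c * s = s * c) (h2 : c * u = u * c) : c * z = z * c := by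
  have su := (qc hu u5 m hs).mpr (e ▸ v1267.1)
  obtain ⟨w, w1, w2, w3⟩ := tetrad5 k ((orderOf_coe u).trans u5) ((m.sq hs).mpr (e ▸ v1267.2.1))
    (fun f => v1267.2.2.1 (e ▸ f ▸ (W5 m).one_mem.2)) su fun f => v1267.2.2.1 (e ▸ (toW hu u5 k.j hs f su).2)
  have a1 := w3 z (m.lx.cent s hs).symm (mem_centralizer_singleton_iff.mp u.2).symm
  have a2 : w * w = 1 := by obtain ⟨g, rfl⟩ := isConj_iff.mp w1; simp [m.lx.zz]
  have a3 : w ∈ Q := by_contra fun n => (out5' hu k.j (y := ⟨w, mem_centralizer_singleton_iff.mpr a1.symm⟩) a2 w2 n).2.1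
    (e ▸ fix_of m hs (w3 s rfl su).symm)
  suffices h : w = z from h ▸ w3 c h1 h2
  by_contra n
  have a4 := (toW hu u5 k.j a3 w1 w2).2
  obtain ⟨v, b1, b2, b3, b4⟩ := nc5' a4 fun f => (m.lx.mem_z.mp ((m.zero a3).mp f)).elim
    (fun f => m.lx.ne_one (isConj_one_left.mp (f ▸ w1))) n
  obtain ⟨q, hq, rfl⟩ := m.surj v
  exact b4 ((ncomm m hq a3 b2 a4.sing).mp (w3 q ((ncomm m hq hs b2 (e ▸ v1267.2.1)).mpr (e ▸ b3)) ((qc hu u5 m hq).mpr b1)))

theorem cls5' {y : centralizer ({z} : Set G)} (y2 : y * y = 1) (c : y * u = u * y) (h : IsConj z y) : (y : G) ∈ Q := by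
  by_contra n
  obtain ⟨⟨i, e⟩, -⟩ := out5' hu k.j (congrArg Subtype.val y2) (congrArg Subtype.val c) n
  obtain ⟨g, g1, g2⟩ := lift5 hu u5 k.j (pow_mem (J0_XJ W_J0) i) (Commute.pow_left (W_comm (J0_GU jb_J)).symm i)
  rw [← g1, ← map_inv, ← map_mul, ← map_mul] at e
  replace h : IsConj z ((g * y * g⁻¹ : centralizer ({z} : Set G)) : G) := h.trans (isConj_iff.mpr ⟨g, rfl⟩)
  replace y2 : g * y * g⁻¹ * (g * y * g⁻¹) = 1 := by simp [y2]
  replace c : Commute (g * y * g⁻¹) u := (Commute.mul_left g2 c).mul_left (Commute.inv_left g2)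
  clear n
  generalize g * y * g⁻¹ = y at *
  replace c : Commute (y : G) u := congrArg Subtype.val c
  obtain ⟨s, hs, es⟩ := m.surj (vc 1267)
  obtain ⟨w, hw, ew⟩ := m.surj (vc 2367)
  have w1 : L5 (p w) := ⟨_, by decide, ew.symm⟩
  have w2 : p w ≠ 0 := ew ▸ vc_zero ▸ vc_ne
  have w3 : w ≠ z := fun f => w2 (f ▸ m.p_z)
  have uz := mem_centralizer_singleton_iff.mp u.2
  have su := (qc hu u5 m hs).mpr (es ▸ v1267.1)
  obtain ⟨a, a1, a2⟩ := tr5 hu u5 k.j (let ⟨_, hg, e⟩ := w1.orb w2; k.j.ofJ hG hw hg e) ((qc hu u5 m hw).mpr w1.fix)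
  obtain ⟨z', b1, b2⟩ := m.lx.mem_conj' (a2 ▸ hw) (a2 ▸ w3)
  replace b2 : a * z' * a⁻¹ = z := b2
  have b3 := (toW hu u5 k.j b1 (isConj_iff.mpr ⟨a, b2⟩).symm (by
    rw [show z' = a⁻¹ * z * a⁻¹⁻¹ from (by group : z' = a⁻¹ * (a * z' * a⁻¹) * a⁻¹⁻¹).trans (by rw [b2])]
    exact (Commute.mul_left (Commute.inv_left a1) uz.symm).mul_left (Commute.inv_left (Commute.inv_left a1)))).2
  obtain ⟨q, hq, q1, q2⟩ := cjQ hu u5 m b1 b3.fix b3.sing fun f => (m.lx.mem_z.mp ((m.zero b1).mp f)).elim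
    (fun f => m.lx.ne_one (by rw [← b2, f]; simp)) fun f => w3 (by rw [← a2, ← f, b2, f])
  have r1 : Commute (a * q * a⁻¹) u := (Commute.mul_left a1 q1).mul_left (Commute.inv_left a1)
  have r2 : a * q * a⁻¹ * z * (a * q * a⁻¹)⁻¹ = w * z := by
    conv_lhs => rw [← b2, conj_inv, conj_mul, conj_mul, q2, ← conj_mul, a2, b2]
  have r3 : a * q * a⁻¹ * w * (a * q * a⁻¹)⁻¹ = w := by
    rw [← a2, conj_inv, conj_mul, conj_mul, m.lx.cent q hq, mul_inv_cancel_right]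
  generalize a * q * a⁻¹ = r at r1 r2 r3
  have cj : ∀ {a b : G}, Commute a b → Commute (r * a * r⁻¹) (r * b * r⁻¹) := fun h => by
    rw [Commute, SemiconjBy, conj_mul, conj_mul, h.eq]
  have s1 : Commute (r * s * r⁻¹) w := r3 ▸ cj ((ncomm m hs hw (es ▸ v1267.2.1) w1.sing).mpr (es ▸ ew ▸ v1267.2.2.2))
  have s2 : Commute (r * s * r⁻¹) z := inv_mul_cancel_left w z ▸ s1.inv_right.mul_right (r2 ▸ cj (m.lx.cent s hs))
  have s3 : Commute (r * s * r⁻¹) u := (r1.mul_left su).mul_left r1.inv_left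
  have s4 : r * s * r⁻¹ * (r * s * r⁻¹) = 1 := by simp [(m.sq hs).mpr (es ▸ v1267.2.1)]
  have s5 : ¬ IsConj z (r * s * r⁻¹) := fun f =>
    v1267.2.2.1 (es ▸ (toW hu u5 k.j hs (f.trans (isConj_iff.mpr ⟨r, rfl⟩).symm) su).2)
  have s6 : r * s * r⁻¹ ∈ Q := by_contra fun n => by
    have f := (out5' hu k.j (y := ⟨_, mem_centralizer_singleton_iff.mpr s2⟩) s4 s3 n).2.2 (ew ▸ fix_of m hw s1)
    exact s5 (h.trans (outer m e f (congrArg Subtype.val y2) s4 ((qc hu u5 m ((m.ker (_ * y⁻¹)).mp (by simp [e, f]))).mp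
      (s3.mul_left c.inv_left))))
  have l : ∀ g : centralizer ({z} : Set G), Commute (g : G) u → ρ g (p s) = p (r * s * r⁻¹) → False := fun g g1 g2 => by
    obtain ⟨c, c1, c2, c3⟩ : ∃ c, Commute c z ∧ Commute c u ∧ c * s * c⁻¹ = r * s * r⁻¹ := by
      have gz := mem_centralizer_singleton_iff.mp g.2
      rcases m.uniq (m.conj_mem g hs) s6 ((m.act g hs).trans g2) with f | f
      · exact ⟨g, gz, g1, f.symm⟩
      obtain ⟨q, hq, q1, q2⟩ := cjQ hu u5 m hs (es ▸ v1267.1) (es ▸ v1267.2.1) fun f => v1267.2.2.1 (es ▸ f ▸ L5_zero)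
      exact ⟨g * q, Commute.mul_left gz (m.lx.cent q hq), g1.mul_left q1, by
        rw [cjcj, q2, f, ← conj_mul, gz, mul_inv_cancel_right]⟩
    have := c1.mul_left (centB hu u5 k hs es (c := c⁻¹ * r) (mul_inv_eq_iff_eq_mul.mp (by rw [cjcj, ← c3]; group))
      (c2.inv_left.mul_left r1))
    rw [mul_inv_cancel_left] at this
    rw [this.eq, mul_inv_cancel_right, eq_comm, mul_eq_right] at r2
    exact w2 (r2 ▸ (m.zero (one_mem _)).mpr (one_mem _))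
  rcases two5 ((qc hu u5 m s6).mp s3) ((m.sq s6).mp s4) (fun f => by
    by_cases n : p (r * s * r⁻¹) = 0
    · exact (m.lx.mem_z.mp ((m.zero s6).mp n)).elim (fun f => v1267.2.2.1 (es ▸ conj_eq_one_iff.mp f ▸ (W5 m).one_mem.2))
        fun f => s5 (f ▸ IsConj.refl _)
    · exact let ⟨_, hg, e⟩ := f.orb n; s5 (k.j.ofJ hG s6 hg e)) (ew ▸ (ncomm m s6 hw ((m.sq s6).mp s4) w1.sing).mp s1) with f | f
  · exact l 1 (Commute.one_left _) (by simp [es, f])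
  · exact l y c (by rw [e, es, f])

theorem d5 : D5 z u (W5 m) := by
  have uz := mem_centralizer_singleton_iff.mp u.2
  have zW : z ∈ W5 m := ⟨m.lx.mem, m.p_z ▸ L5_zero⟩
  have wu : ∀ w ∈ W5 m, w * u = u * w := fun w hw => (qc hu u5 m hw.1).mpr hw.2.fix
  have sq : ∀ w ∈ W5 m, w * w = 1 := fun w hw => (m.sq hw.1).mpr hw.2.sing
  refine ⟨m.lx.ord, (orderOf_coe u).trans u5, uz.symm, ?_, sq, fun w => ⟨fun hw => ?_, ?_⟩, card960 hu u5 k.j, fun c h1 h2 => ?_, ?_, ?_,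
    fun d => tr5 hu u5 k.j, fun s => tetrad5 k ((orderOf_coe u).trans u5)⟩
  · rw [m.card_p' (U := W5 m) (fun _ h => h.1) zW, show p '' W5 m = {v | L5 v} from Set.ext fun v => ⟨fun ⟨q, hq, e⟩ => e ▸ hq.2, fun h =>
      let ⟨q, hq, e⟩ := m.surj v; ⟨q, ⟨hq, e ▸ h⟩, e⟩⟩, ncard_L5]
  · by_cases n : p w = 0
    · exact (m.lx.mem_z.mp ((m.zero hw.1).mp n)).imp_right fun e => by rw [e]; exact ⟨IsConj.refl _, rfl, uz.symm⟩
    obtain ⟨g, hg, e⟩ := hw.2.orb n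
    exact Or.inr ⟨k.j.ofJ hG hw.1 hg e, m.lx.cent w hw.1, wu w hw⟩
  · rintro (rfl | ⟨a1, a2, a3⟩)
    · exact one_mem _
    refine toW hu u5 k.j (cls5' hu u5 hG k (y := ⟨w, mem_centralizer_singleton_iff.mpr a2⟩) (Subtype.ext ?_) (Subtype.ext a3) a1) a1 a3
    obtain ⟨g, rfl⟩ := isConj_iff.mp a1
    simp [m.lx.zz]
  · let c' : centralizer ({z} : Set G) := ⟨c, mem_centralizer_singleton_iff.mpr (h2 z zW).symm⟩
    obtain ⟨i, e⟩ := L5_triv (k.j.hr.le ⟨c', rfl⟩) (by rw [← hu, ← map_mul, ← map_mul, show c' * u = u * c' from Subtype.ext h1])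
      fun v hv => by
        obtain ⟨q, hq, rfl⟩ := m.surj v
        rw [← m.act c' hq, ← h2 q ⟨hq, hv⟩, mul_inv_cancel_right]
    have a1 : c * ((u : G) ^ i)⁻¹ ∈ Q := (m.ker (c' * (u ^ i)⁻¹)).mp (by simp [hu, ← e])
    refine ⟨_, ⟨a1, L5_perp ((qc hu u5 m a1).mp (Commute.mul_left h1 ((Commute.refl _).zpow_left i).inv_left)) fun v hv => ?_⟩,
      i, (inv_mul_cancel_right _ _).symm⟩
    obtain ⟨q, hq, rfl⟩ := m.surj v
    have a2 : Commute q (c * ((u : G) ^ i)⁻¹) := Commute.mul_right (h2 q ⟨hq, hv⟩) (Commute.zpow_right (wu q ⟨hq, hv⟩) i).inv_right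
    rw [← m.mul a1 hq, ← m.sq (mul_mem a1 hq), ← m.sq a1, a2.mul_mul_mul_comm, sq q ⟨hq, hv⟩, mul_one]
  · obtain ⟨q, hq, e⟩ := m.surj (vc 1267)
    obtain ⟨h1, h2, h3, -⟩ := e ▸ v1267
    have := (qc hu u5 m hq).mpr h1
    exact ⟨q, (m.sq hq).mpr h2, fun e => h3 (e ▸ (W5 m).one_mem.2), this, fun e => h3 (toW hu u5 k.j hq e this).2⟩
  · obtain ⟨y, e, f⟩ := lift5 hu u5 k.j js_XJ js_jb
    replace f : Commute (y : G) u := congrArg Subtype.val f
    have a := (sq_js m e (one_mem _)).1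
    rw [one_mul] at a
    obtain ⟨v, h1, h2⟩ := js_nsp ((qc hu u5 m a).mp (f.mul_left f)) (by rw [← e, ← m.act y a, ← mul_assoc, mul_inv_cancel_right])
    obtain ⟨q, hq, rfl⟩ := m.surj v
    have l : ∀ w ∈ W5 m, (w * (q * y)) ^ 4 = z := fun w hw => by
      have b := sq_js m (h := ⟨q, m.lx.le_centralizer hq⟩ * y) (by rw [map_mul, (m.ker _).mpr hq, one_mul, e]) hw.1
      rw [coe_mul, (sq_js m e hq).2] at b
      rw [show ∀ a : G, a ^ 4 = a * a * (a * a) from fun a => by simp [pow_succ, mul_assoc]]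
      exact (m.lx.mem_z.mp (m.lx.sq _ b.1)).resolve_left (mt (m.sq b.1).mp (b.2 ▸ h2 _ hw.2))
    refine ⟨q * y, Commute.mul_left ((qc hu u5 m hq).mpr h1) f, ?_, fun w hw => by rw [l w hw]; exact ⟨zW, m.lx.ne_one⟩⟩
    rw [show 8 = 4 + 4 from rfl, pow_add, ← one_mul (q * y), l 1 (one_mem _), m.lx.zz]

end

variable [IsSimpleGroup G] (hG : ¬ IsMulCommutative G) (j : JF m x) (u5 : orderOf u = 5)
include hG j u5

theorem exists_d5 : ∃ W, D5 z u W :=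
  let ⟨_, _, _, _, j, hu⟩ := shift5 j u5
  let ⟨_, _, _, _, k⟩ := j.exists_jc hG
  ⟨_, d5 hu u5 hG k⟩

theorem cls5 {y : centralizer ({z} : Set G)} (y2 : y * y = 1) (c : Commute y u) (h : IsConj z y) : (y : G) ∈ Q :=
  let ⟨_, _, _, _, j, hu⟩ := shift5 j u5
  let ⟨_, _, _, _, k⟩ := j.exists_jc hG
  cls5' hu u5 hG k y2 c h

end Cfsg.Agent.J4D
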