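import Cfsg.Agent.H21.Ja7

/-! The centralizer of an element of order `5` in `3.M22:2` and its fixed vectors. -/

set_option autoImplicit false
set_option maxRecDepth 100000
set_option linter.style.haveILetI false

namespace Cfsg.Agent.J4D

open Cfsg Cfsg.Agent.LL Cfsg.Agent.LL.U6 Cfsg.Agent.H16 Cfsg.Agent.H3 Cfsg.Agent.H10 MulAction Mdl Subgroup

theorem conj5 {A : Type*} [Group A] {a b : A} (h5 : a ^ 5 = 1) (h : b * a * b⁻¹ = a ^ 2) {i : ℕ} (hi : i < 5) (n : i ≠ 0) :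
    ∃ j : ℕ, b ^ j * a * (b ^ j)⁻¹ = a ^ i := by
  have l : ∀ j : ℕ, b ^ j * a * (b ^ j)⁻¹ = a ^ 2 ^ j := fun j => by
    induction j with
    | zero => simp
    | succ j ih => rw [pow_succ', cjcj, ih, ← conj_pow, h, ← pow_mul, pow_succ']
  interval_cases i
  · exact absurd rfl n
  · exact ⟨0, l 0⟩
  · exact ⟨1, l 1⟩
  · exact ⟨3, (l 3).trans (by rw [show 2 ^ 3 = 5 + 3 by norm_num, pow_add, h5, one_mul])⟩
  · exact ⟨2, l 2⟩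

theorem ord_jb : orderOf (el jb) = 5 := Mdl.orderOf_prime hv hpt R_jb (by norm_num) (by decide +kernel)
theorem jb5 : el jb ^ 5 = 1 := ord_jb ▸ pow_orderOf_eq_one _
theorem ju_jb : el ju * el jb * (el ju)⁻¹ = el jb ^ 2 := cjM_spec R_ju R_jb (R_pow R_jb 2) (by decide +kernel)
theorem js_jb : el js * el jb = el jb * el js := M.eq_of (M.R_mul R_js R_jb) (M.R_mul R_jb R_js) (by decide +kernel)
theorem ord_js : orderOf (el js) = 2 := Mdl.orderOf_prime hv hpt R_js (by norm_num) (by decide +kernel)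

theorem conj_jb {g : Γ} (hg : g ∈ XJ) (h : g ^ 5 = 1) (n : g ≠ 1) : ∃ k ∈ XJ, k * g * k⁻¹ = el jb := by
  haveI := XA_ch.finite
  obtain ⟨c, hc, e⟩ := exists_conj_mem_of_pow (zpowers_le.mpr (J0_XJ jb_J)) (p := 5) (k := 1) (m := 532224) (by norm_num)
    (by rw [Nat.card_zpowers, ord_jb]; norm_num) (by rw [XJ_card]; norm_num) (by norm_num) hg (j := 1) (by simpa using h)
  obtain ⟨i, hi, e⟩ := exists_pow_of_mem (by norm_num) ord_jb e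
  obtain ⟨j, f⟩ := conj5 jb5 ju_jb hi (by rintro rfl; exact n (by simpa using e))
  refine ⟨(el ju ^ j)⁻¹ * c, mul_mem (inv_mem (pow_mem (J0_XJ ju_J) j)) hc, ?_⟩
  rw [cjcj, e, ← f]; group

noncomputable def cw5 (k i : ℕ) : ℕ := o.mul (powM o js k) (powM o (o.mul jb cW) i)
theorem R_cw5 (k i : ℕ) : M.R (cw5 k i) (el js ^ k * (el jb * Wm) ^ i) := M.R_mul (R_pow R_js k) (R_pow (M.R_mul R_jb R_W) i)

theorem cent0 {g : Γ} (hg : g ∈ J0) (h : g * el jb = el jb * g) : ∃ i < 15, g = (el jb * Wm) ^ i := by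
  obtain ⟨a, r, e⟩ := C270_ch.forall (Lf := fun a => force a fun a => impB (N.siftC o J0L a)
    (anyB 15 fun i => Nat.beq (powM o (o.mul jb cW) i) a)) (by decide +kernel)
    (C270_eq.ge ⟨J0_GU hg, mem_centralizer_singleton_iff.mpr h⟩)
  simp only [force_eq, impB_iff, anyB_iff, Nat.beq_eq] at e
  obtain ⟨i, hi, f⟩ := e (J0_ch.siftC r hg)
  exact ⟨i, hi, R_fun r (f ▸ R_pow (M.R_mul R_jb R_W) i)⟩

theorem cent1 {g : Γ} (hg : g ∈ XJ) (h : g * el jb = el jb * g) :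
    (∃ i < 15, g = (el jb * Wm) ^ i) ∨ ∃ i < 15, el js * g = (el jb * Wm) ^ i :=
  (mem_XJ.mp hg).imp (cent0 · h) (cent0 · (by rw [mul_assoc, h, ← mul_assoc, js_jb, mul_assoc]))

theorem cent2 {g : Γ} (hg : g ∈ XJ) (h : g * el jb = el jb * g) : ∃ k < 2, ∃ i < 15, M.R (cw5 k i) g := by
  rcases cent1 hg h with ⟨i, hi, e⟩ | ⟨i, hi, e⟩
  · exact ⟨0, by norm_num, i, hi, by simpa [e] using R_cw5 0 i⟩
  · exact ⟨1, by norm_num, i, hi, by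
      have := R_cw5 1 i
      rwa [← e, pow_one, ← mul_assoc, eq_inv_iff_mul_eq_one.mp js_inv.symm, one_mul] at this⟩

theorem card30 : Nat.card ↥(XJ ⊓ centralizer {el jb}) = 30 := by
  haveI := XA_ch.finite
  haveI : Finite ↥(XJ ⊓ centralizer {el jb}) := Finite.of_injective _ (inclusion_injective inf_le_left)
  have h1 := card_le_two_mul (E := XJ ⊓ centralizer {el jb}) (K := zpowers (el jb * Wm)) (t := el js) fun g hg =>
    (cent1 hg.1 (mem_centralizer_singleton_iff.mp hg.2)).imp (fun ⟨i, _, e⟩ => e ▸ pow_mem (mem_zpowers _) i)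
      fun ⟨i, _, e⟩ => e ▸ pow_mem (mem_zpowers _) i
  have h0 : orderOf (el jb * Wm) ∣ 15 := orderOf_dvd_of_pow_eq_one (isOne_spec (R_pow (M.R_mul R_jb R_W) 15) (by decide +kernel))
  haveI : Finite (zpowers (el jb * Wm)) := Nat.finite_of_card_ne_zero (by
    rw [Nat.card_zpowers]; rintro e; simp [e] at h0)
  have h2 := card_le_of_le (inf_le_right : XJ ⊓ centralizer {el jb} ⊓ zpowers (el jb * Wm) ≤ _)
  rw [Nat.card_zpowers] at h2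
  have h3 := Nat.le_of_dvd (by norm_num) h0
  have l : ∀ {g}, g ∈ XJ → g * el jb = el jb * g → orderOf g ∣ Nat.card ↥(XJ ⊓ centralizer {el jb}) := fun a b =>
    orderOf_dvd_natCard _ ⟨a, mem_centralizer_singleton_iff.mpr b⟩
  have h4 := l js_XJ js_jb
  have h5 := l (J0_XJ W_J0) (W_comm (J0_GU jb_J)).symm
  have h6 := l (J0_XJ jb_J) rfl
  have h7 : 0 < Nat.card ↥(XJ ⊓ centralizer {el jb}) := Nat.card_pos
  rw [ord_js] at h4; rw [orderOf_W] at h5; rw [ord_jb] at h6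
  omega

def fx5 : List ℕ := [0, 300, 535, 827, 1267, 1503, 1764, 1992, 2067, 2367, 2564, 2856, 3296, 3532, 3831, 4059]
def lz5 : List ℕ := [0, 1764, 2367, 4059]

/-- the isotropic point of the first type fixed by `jb` -/
def L5 (v : V6) : Prop := ∃ a ∈ lz5, vc a = v

theorem fx5_lt : ∀ a ∈ fx5, a < 4096 := by decide
theorem lz5_fx : ∀ a ∈ lz5, a ∈ fx5 := by decide

theorem fixb {v : V6} : el jb v = v ↔ ∃ a ∈ fx5, vc a = v := by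
  refine ⟨fun h => ?_, ?_⟩
  · obtain ⟨x, hx, e⟩ := en_all (fun x => impB (Nat.beq (mul12Ap jb x) x) (anyL fx5 (Nat.beq x))) (by decide +kernel) v
    obtain ⟨h1, rfl⟩ := P_iff.mp hx
    simp only [impB_iff, anyL_iff, Nat.beq_eq] at e
    obtain ⟨a, ha, rfl⟩ := e (vc_inj (R_ap R_jb h1).1 h1 ((R_ap R_jb h1).2.symm.trans h))
    exact ⟨_, ha, rfl⟩
  · rintro ⟨a, ha, rfl⟩
    rw [(R_ap R_jb (fx5_lt a ha)).2, (by decide +kernel : ∀ a ∈ fx5, mul12Ap jb a = a) a ha]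

theorem L5.fix {v : V6} (h : L5 v) : el jb v = v := let ⟨a, ha, e⟩ := h; fixb.mpr ⟨a, lz5_fx a ha, e⟩
theorem L5_zero : L5 0 := ⟨0, by decide, vc_zero⟩
theorem L5.add {u v : V6} (h : L5 u) (h' : L5 v) : L5 (u + v) := by
  obtain ⟨a, ha, rfl⟩ := h
  obtain ⟨b, hb, rfl⟩ := h'
  exact ⟨_, (by decide : ∀ a ∈ lz5, ∀ b ∈ lz5, a ^^^ b ∈ lz5) a ha b hb, vc_xor a b⟩
theorem L5.sing {v : V6} (h : L5 v) : hf v v = 0 := by
  obtain ⟨a, ha, rfl⟩ := h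
  exact hf_of ((by decide +kernel : ∀ a ∈ lz5, herm4 6 a a = 0) a ha)
theorem L5.orb {v : V6} (h : L5 v) (n : v ≠ 0) : ∃ g ∈ XJ, g v1 = v := by
  obtain ⟨a, ha, rfl⟩ := h
  exact inOrb_spec (XA_ch.tabIn _ List.mem_cons_self) P1' (P_vc (fx5_lt a (lz5_fx a ha)))
    (((by decide +kernel : ∀ a ∈ lz5, a = 0 ∨ inOrb o J00 a = true) a ha).resolve_left fun e => n (e ▸ vc_zero))
theorem L5_of {g : Γ} (hg : g ∈ XJ) (h : el jb (g v1) = g v1) : L5 (g v1) := by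
  obtain ⟨a, ha, e⟩ := fixb.mp h
  exact ⟨a, (by decide +kernel : ∀ a ∈ fx5, inOrb o J00 a = true → a ∈ lz5) a ha
    (inOrb_of XA_ch P1' hg (P_iff.mpr ⟨fx5_lt a ha, e⟩)), e⟩

theorem hf_iff {x : ℕ} : hf (vc x) (vc x) = 0 ↔ herm4 6 x x = 0 := ⟨hf_eq, hf_of⟩

theorem L5_perp {v : V6} (h : el jb v = v) (h' : ∀ w, L5 w → (hf (v + w) (v + w) = 0 ↔ hf v v = 0)) : L5 v := by
  obtain ⟨a, ha, rfl⟩ := fixb.mp h
  refine ⟨a, (by decide +kernel : ∀ a ∈ fx5, (∀ b ∈ lz5, (herm4 6 (a ^^^ b) (a ^^^ b) = 0 ↔ herm4 6 a a = 0)) → a ∈ lz5) a ha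
    fun b hb => ?_, rfl⟩
  rw [← hf_iff, ← hf_iff, vc_xor]
  exact h' _ ⟨b, hb, rfl⟩

theorem L5_triv {g : Γ} (hg : g ∈ XJ) (h : g * el jb = el jb * g) (h' : ∀ w, L5 w → g w = w) : g ∈ zpowers (el jb) := by
  obtain ⟨k, hk, i, hi, r⟩ := cent2 hg h
  obtain ⟨j, -, e⟩ := (by decide +kernel : ∀ k < 2, ∀ i < 15, (∀ a ∈ lz5, mul12Ap (cw5 k i) a = a) →
    ∃ j < 5, powM o jb j = cw5 k i) k hk i hi fun a ha =>
      have := R_ap r (fx5_lt a (lz5_fx a ha))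
      vc_inj this.1 (fx5_lt a (lz5_fx a ha)) (this.2.symm.trans (h' _ ⟨a, ha, rfl⟩))
  exact R_fun (e ▸ R_pow R_jb j) r ▸ pow_mem (mem_zpowers _) j

theorem ncard_fix5 : {v | el jb v = v}.ncard = 16 := by
  rw [ncard_eq_cnt (X := {v | el jb v = v}) (f := fun x => anyL fx5 (Nat.beq x)) fun x hx => fixb.trans ⟨fun ⟨a, ha, e⟩ =>
    anyL_iff.mpr ⟨a, ha, Nat.beq_eq ▸ vc_inj hx (fx5_lt a ha) e.symm⟩, fun h =>
    let ⟨a, ha, e⟩ := anyL_iff.mp h; ⟨a, ha, congrArg vc (Nat.eq_of_beq_eq_true e).symm⟩⟩]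
  decide +kernel

theorem ncard_L5 : {v | L5 v}.ncard = 4 := by
  rw [ncard_eq_cnt (X := {v | L5 v}) (f := fun x => anyL lz5 (Nat.beq x)) fun x hx => ⟨fun ⟨a, ha, e⟩ =>
    anyL_iff.mpr ⟨a, ha, Nat.beq_eq ▸ vc_inj hx (fx5_lt a (lz5_fx a ha)) e.symm⟩, fun h =>
    let ⟨a, ha, e⟩ := anyL_iff.mp h; ⟨a, ha, congrArg vc (Nat.eq_of_beq_eq_true e).symm⟩⟩]
  decide +kernel

theorem js_nsp {a : V6} (h : el jb a = a) (h' : el js a = a) :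
    ∃ v, el jb v = v ∧ ∀ e, L5 e → hf (e + el js e + (v + el js v + a)) (e + el js e + (v + el js v + a)) ≠ 0 := by
  obtain ⟨a, ha, rfl⟩ := fixb.mp h
  have l := fun {a} (ha : a ∈ fx5) => R_ap R_js (fx5_lt a ha)
  obtain ⟨v, hv, f⟩ := (by decide +kernel : ∀ a ∈ fx5, mul12Ap js a = a → ∃ v ∈ fx5, ∀ e ∈ lz5,
    herm4 6 (e ^^^ mul12Ap js e ^^^ (v ^^^ mul12Ap js v ^^^ a)) (e ^^^ mul12Ap js e ^^^ (v ^^^ mul12Ap js v ^^^ a)) ≠ 0) a ha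
    (vc_inj (l ha).1 (fx5_lt a ha) ((l ha).2.symm.trans h'))
  refine ⟨vc v, fixb.mpr ⟨v, hv, rfl⟩, ?_⟩
  rintro _ ⟨e, he, rfl⟩
  rw [(l hv).2, (l (lz5_fx e he)).2, ← vc_xor, ← vc_xor, ← vc_xor, ← vc_xor]
  exact mt hf_eq (f e he)

theorem out5 {g : Γ} (hg : g ∈ XJ) (h : g * el jb = el jb * g) (h2 : g * g = 1) (n : g ≠ 1) :
    (∃ j : ℕ, Wm ^ j * g * (Wm ^ j)⁻¹ = el js) ∧ g (vc 1267) ≠ vc 1267 ∧ (g (vc 2367) = vc 2367 → g = el js) := by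
  obtain ⟨k, hk, i, hi, r⟩ := cent2 hg h
  obtain ⟨⟨j, -, a⟩, b, c⟩ := (((by decide +kernel : ∀ k < 2, ∀ i < 15, neB o pts (o.mul (cw5 k i) (cw5 k i)) o.one = true ∨
    isOne o (cw5 k i) = true ∨ (∃ j < 3, cjM o (powM o cW j) (cw5 k i) js = true) ∧ mul12Ap (cw5 k i) 1267 ≠ 1267 ∧
    (mul12Ap (cw5 k i) 2367 = 2367 → cw5 k i = js)) k hk i hi).resolve_left fun e =>
      ne_of_neB hv hpt (M.R_mul r r) M.R_one e h2).resolve_left fun e => n (isOne_spec r e)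
  have l := fun {x} (hx : x < 4096) (e : g (vc x) = vc x) => vc_inj (R_ap r hx).1 hx ((R_ap r hx).2.symm.trans e)
  exact ⟨⟨j, cjM_spec (R_pow R_W j) r R_js a⟩, fun e => b (l (by norm_num) e), fun e => R_fun r (c (l (by norm_num) e) ▸ R_js)⟩

theorem js_br {a : V6} (h : el jb a = a) (h' : el js a = a) : ∃ v, el jb v = v ∧ v + el js v = a := by
  obtain ⟨a, ha, rfl⟩ := fixb.mp h
  have l := fun {a} (ha : a ∈ fx5) => R_ap R_js (fx5_lt a ha)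
  obtain ⟨v, hv, f⟩ := (by decide +kernel : ∀ a ∈ fx5, mul12Ap js a = a → ∃ v ∈ fx5, v ^^^ mul12Ap js v = a) a ha
    (vc_inj (l ha).1 (fx5_lt a ha) ((l ha).2.symm.trans h'))
  exact ⟨vc v, fixb.mpr ⟨v, hv, rfl⟩, by rw [(l hv).2, ← vc_xor, f]⟩

theorem nc5 {a : V6} (h : el jb a = a) (h' : hf a a = 0) (n : a ≠ 0) : ∃ v, el jb v = v ∧ hf v v = 0 ∧ hf (v + a) (v + a) ≠ 0 := by
  obtain ⟨a, ha, rfl⟩ := fixb.mp h
  obtain ⟨v, hv, f, f'⟩ := ((by decide +kernel : ∀ a ∈ fx5, herm4 6 a a = 0 → a = 0 ∨ ∃ v ∈ fx5, herm4 6 v v = 0 ∧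
    herm4 6 (v ^^^ a) (v ^^^ a) ≠ 0) a ha (hf_eq h')).resolve_left fun e => n (e ▸ vc_zero)
  exact ⟨vc v, fixb.mpr ⟨v, hv, rfl⟩, hf_of f, vc_xor v a ▸ mt hf_eq f'⟩

theorem nc5' {a : V6} (h : L5 a) (n : a ≠ 0) :
    ∃ v, el jb v = v ∧ hf v v = 0 ∧ hf (v + vc 1267) (v + vc 1267) = 0 ∧ hf (v + a) (v + a) ≠ 0 := by
  obtain ⟨a, ha, rfl⟩ := h
  obtain ⟨v, hv, f, f', f''⟩ := ((by decide +kernel : ∀ a ∈ lz5, a = 0 ∨ ∃ v ∈ fx5, herm4 6 v v = 0 ∧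
    herm4 6 (v ^^^ 1267) (v ^^^ 1267) = 0 ∧ herm4 6 (v ^^^ a) (v ^^^ a) ≠ 0) a ha).resolve_left fun e => n (e ▸ vc_zero)
  exact ⟨vc v, fixb.mpr ⟨v, hv, rfl⟩, hf_of f, vc_xor v _ ▸ hf_of f', vc_xor v a ▸ mt hf_eq f''⟩

theorem two5 {a : V6} (h : el jb a = a) (h' : hf a a = 0) (n : ¬ L5 a) (h2 : hf (a + vc 2367) (a + vc 2367) = 0) :
    vc 1267 = a ∨ el js (vc 1267) = a := by
  obtain ⟨a, ha, rfl⟩ := fixb.mp h
  rw [(R_ap R_js (by norm_num)).2]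
  exact (((by decide +kernel : ∀ a ∈ fx5, herm4 6 a a = 0 → herm4 6 (a ^^^ 2367) (a ^^^ 2367) = 0 → a ∈ lz5 ∨ 1267 = a ∨
    mul12Ap js 1267 = a) a ha (hf_eq h') (hf_eq (vc_xor a _ ▸ h2))).resolve_left fun e => n ⟨a, e, rfl⟩).imp
      (congrArg vc) (congrArg vc)

theorem v1267 : el jb (vc 1267) = vc 1267 ∧ hf (vc 1267) (vc 1267) = 0 ∧ ¬ L5 (vc 1267) ∧
    hf (vc 1267 + vc 2367) (vc 1267 + vc 2367) = 0 :=
  ⟨fixb.mpr ⟨_, by decide, rfl⟩, hf_of (by decide +kernel), fun ⟨a, ha, e⟩ =>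
    absurd (vc_inj (fx5_lt a (lz5_fx a ha)) (by norm_num) e ▸ ha) (by decide), vc_xor _ _ ▸ hf_of (by decide +kernel)⟩

end Cfsg.Agent.J4D
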